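import Cfsg.Agent.Lib.CK.SH

/-! The model satisfies the hypotheses of the character theoretic estimate; the case of an abelian
normaliser is excluded by transfer. -/

set_option autoImplicit false

namespace Cfsg.Lib.CKS

open Cfsg Cfsg.Lib.Char Module MulAction Finset

open Classical in
theorem card_eigen {F V : Type*} [Field F] [Fintype F] [AddCommGroup V] [Module F V] [Fintype V]
    (h5 : 5 ≤ finrank F V) (g : Module.End F V) (hg : ∀ c : F, ∃ v, g v ≠ c • v) :
    #{v | ∃ c : F, g v = c • v} ≤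
      Fintype.card F ^ (finrank F V - 1) + Fintype.card F ^ (finrank F V - 2) := by
  obtain ⟨c₀, -, h₀⟩ := exists_max_image univ (fun c => finrank F (g.eigenspace c)) univ_nonempty
  have q1 : 1 ≤ Fintype.card F := Fintype.card_pos
  have a1 : ∀ c, #{v | g v = c • v} = Fintype.card F ^ finrank F (g.eigenspace c) := fun c => by
    rw [← Module.card_eq_pow_finrank, Fintype.card_subtype]
    simp [Module.End.mem_eigenspace_iff]
  have a2 : finrank F (g.eigenspace c₀) ≤ finrank F V - 1 := by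
    obtain ⟨v, hv⟩ := hg c₀
    have := Submodule.finrank_lt (s := g.eigenspace c₀) fun e =>
      hv (Module.End.mem_eigenspace_iff.1 (e ▸ Submodule.mem_top))
    omega
  have a3 : ∀ c ∈ univ.erase c₀, finrank F (g.eigenspace c) ≤ finrank F V - 3 := fun c hc => by
    have := Submodule.finrank_add_finrank_le_of_disjoint
      (g.eigenspaces_iSupIndep.pairwiseDisjoint (mem_erase.1 hc).1)
    have := h₀ c (mem_univ _)
    omega
  calc _ = #(univ.biUnion fun c : F => ({v | g v = c • v} : Finset V)) := by congr 1; ext; simp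
    _ ≤ ∑ c, Fintype.card F ^ finrank F (g.eigenspace c) := card_biUnion_le.trans (by simp [a1])
    _ ≤ _ := by
      rw [← add_sum_erase _ _ (mem_univ c₀)]
      refine add_le_add (Nat.pow_le_pow_right q1 a2) ((sum_le_card_nsmul _ _ _ fun c hc =>
        Nat.pow_le_pow_right q1 (a3 c hc)).trans ?_)
      rw [show finrank F V - 2 = finrank F V - 3 + 1 by omega, pow_succ', smul_eq_mul]
      exact Nat.mul_le_mul_right _ (card_le_univ _)

variable {K : Type*} [Field K] {G : Type*} [Group G] [DistribMulAction G K] [FaithfulSMul G K]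
  {F : Type*} [Field F] [Fintype F] [Finite K] [Algebra F K] [SMulCommClass G F K] [Fintype G]

namespace Md

variable {t r d a : ℕ} (h : Md K G F t r d a)
include h

omit [FaithfulSMul G K] [Fintype G] in
theorem trans (hN : h.Nn ≠ ⊤) : IsPretransitive G (Nz K) := ⟨fun v w => by
  obtain ⟨g, -, e⟩ := (h.trans_or ⊤ le_top).resolve_right (fun e => hN (top_unique e)) _ _ v.2 w.2
  exact ⟨g, Nz.smul_eq.2 e⟩⟩

omit [FaithfulSMul G K] [Fintype G] [SMulCommClass G F K] h in
theorem mul_mem {x z : G} (hx : x ∈ Sc K G a) (hz : z ∈ Sc K G t) : z * x ∈ Sc K G (a * t) :=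
  Subgroup.mul_mem _ (Sc_mono (dvd_mul_left _ _) hz) (Sc_mono (dvd_mul_right _ _) hx)

theorem ts {φ : G} (hφ : ∀ v : K, φ • v = v ^ (t + 1))
    (hmin : ∀ Y : Subgroup G, Sc K G (a * t) ≤ Y → Y ≤ h.Nn ∨ Y = ⊤) (hN : h.Nn ≠ ⊤)
    (h2 : ¬ (r = 5 ∧ t = 1)) (h6 : ¬ (r = 5 ∧ t = 5)) :
    ∃ τ, TS (Sc K G a) (Sc K G t) h.Nn φ τ r := by
  have a1 : ∀ (x : G) (u : K), (∀ v : K, x • v = u * v) → ∀ v : K, (φ * x * φ⁻¹) • v =
      u ^ (t + 1) * v := fun x u hu v => by
    rw [mul_smul, mul_smul, hu, hφ, mul_pow, ← hφ (φ⁻¹ • v), smul_inv_smul]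
  have a2 : φ ∈ Subgroup.normalizer (Sc K G a : Set G) :=
    Subgroup.mem_normalizer_fintype fun x hx => by
      obtain ⟨u, h1, hu⟩ := mem_Sc.1 hx
      exact mem_Sc.2 ⟨u ^ (t + 1), by rw [← pow_mul, pow_mul', h1, one_pow], a1 x u hu⟩
  have a3 : ∀ x : Sc K G a, ((Sc K G a).normalizerMonoidHom ⟨φ, a2⟩ x : G) = φ * x * φ⁻¹ :=
    fun _ => rfl
  have a4 : ∀ i : ℕ, ∀ v : K, φ ^ i • v = v ^ (t + 1) ^ i := fun i v => by
    induction i with
    | zero => simp
    | succ i ih => rw [pow_succ', mul_smul, ih, hφ, ← pow_mul, pow_succ]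
  refine ⟨(Sc K G a).normalizerMonoidHom ⟨φ, a2⟩, ⟨⟨fun x y => Subtype.ext (Sc_comm x.2 y.2)⟩⟩,
    h.cen, fun _ => h.disj, a3, fun x => ?_, fun x e => ?_, h.prime,
    fun g x hx z hz x' hx' z' hz' x1 e => ?_, ?_, fun X hX h1 h2 => ?_, ?_⟩
  · have : ∀ i : ℕ, (((Sc K G a).normalizerMonoidHom ⟨φ, a2⟩)^[i] x : G) = φ ^ i * x * (φ ^ i)⁻¹ :=
      fun i => by
        induction i with
        | zero => simp
        | succ i ih => rw [Function.iterate_succ_apply', a3, ih, pow_succ']; group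
    refine Subtype.ext ((this r).trans ?_)
    rw [show φ ^ r = 1 from eq_of_smul_eq_smul fun v : K => by simp [a4, h.frob.2 dvd_rfl]]
    simp
  · obtain ⟨u, -, hu⟩ := mem_Sc.1 x.2
    have := a1 x u hu 1
    rw [← a3, e, hu, mul_one, mul_one, pow_succ', eq_comm, mul_right_eq_self₀,
      or_iff_left u.ne_zero] at this
    exact Subtype.ext (h.disj x.2 (mem_Sc.2 ⟨u, Units.ext (by simpa), hu⟩))
  · exact h.ti (mul_mem hx hz) (fun e => x1 (h.disj hx ((Subgroup.mul_mem_cancel_left _ hz).1 e)))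
      (e ▸ mul_mem hx' hz')
  · rw [h.card_Sc (dvd_mul_right _ _), h.card_Sc (dvd_mul_left _ _)]
    exact h.card_Nn
  · refine (hmin X fun y hy => ?_).resolve_left fun e => hN (h.top_of_normal hX h1 e)
    obtain ⟨z, hz, x, hx, rfl⟩ := h.split hy
    exact X.mul_mem (h2 hz) (h1 hx)
  · rw [h.card_Sc (dvd_mul_right _ _)]
    exact h.big h2 h6

omit [Fintype G] in
theorem ta {φ : G} (hφ : ∀ v : K, φ • v = v ^ (t + 1)) (hN : h.Nn ≠ ⊤) (h6 : ¬ (r = 5 ∧ t = 5)) :
    TA (Nz K) (Sc K G a) (Sc K G t) r d := by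
  refine ⟨fun x hx z hz v e => eq_one_of_mem_Sc (mul_mem hx hz) v.2 (Nz.smul_eq.1 e), ?_, h.dpos,
    h.trans hN, fun μ h1 h2 => ?_, ?_⟩
  · rw [h.card_Sc (dvd_mul_right _ _), h.card_Sc (dvd_mul_left _ _), h.cardNz, mul_comm a]
  · have a1 : Sc K G (a * d) ≤ μ.ker := fun y hy => by
      obtain ⟨u, e, hu⟩ := mem_Sc.1 hy
      obtain ⟨γ, hγ⟩ := IsCyclic.exists_monoid_generator (α := Kˣ)
      obtain ⟨k, rfl⟩ := hγ u
      have := orderOf_dvd_of_pow_eq_one e
      simp only [← pow_mul] at this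
      rw [orderOf_dvd_iff_pow_eq_one, ← pow_mul, ← orderOf_dvd_iff_pow_eq_one,
        orderOf_eq_card_of_forall_mem_powers hγ, h.cardU, mul_comm k,
        Nat.mul_dvd_mul_iff_left (Nat.mul_pos h.one_lt.pos h.dpos)] at this
      obtain ⟨l, rfl⟩ := this
      have b1 := h2 φ ⟨1, one_ne_zero⟩ (Nz.smul_eq.2 (by simp [hφ]))
      have b2 := h2 (y⁻¹ * φ) ⟨(γ ^ l : Kˣ), Units.ne_zero _⟩ (Nz.smul_eq.2 (by
        simp only [mul_smul, inv_smul_eq_iff, hu, hφ, Units.val_pow_eq_pow_val]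
        ring))
      simpa [b1] using b2
    rcases h.trans_or _ a1 with e | e
    · ext g
      obtain ⟨y, hy, e⟩ := e 1 (g • 1) one_ne_zero ((smul_ne_zero_iff_ne g).2 one_ne_zero)
      have := h2 (y⁻¹ * g) ⟨1, one_ne_zero⟩ (Nz.smul_eq.2 (by simp [mul_smul, ← e]))
      rw [map_mul, map_inv, show μ y = 1 from hy, inv_one, one_mul] at this
      simp [this]
    · exact absurd (h.top_of_normal inferInstance h1 e) hN
  · rw [h.card_Sc (dvd_mul_right _ _)]
    exact h.num h6

theorem top_of_le (hle : h.Nn ≤ Sc K G (a * t)) : h.Nn = ⊤ := by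
  classical
  by_contra hN
  have := h.trans hN
  set H := Sc K G (a * t) with hH
  set A := Sc K G a with hA
  have cA : Nat.card A = a := h.card_Sc (dvd_mul_right _ _)
  have cG : H.index * (a * t) = Nat.card G := by rw [← h.card_Sc dvd_rfl, H.index_mul_card]
  have k1 : ∀ g, ∀ x ∈ A, x ≠ 1 → g⁻¹ * x * g ∈ H → g ∈ H := fun g x hx x1 e =>
    H.inv_mem_iff.1 (hle (h.ti hx (fun e => x1 (h.disj hx e)) (by rwa [inv_inv])))
  have i1 : a ≤ H.index := by
    obtain ⟨g, hg⟩ : ∃ g, g ∉ H := by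
      by_contra hc
      push Not at hc
      exact hN (top_unique fun g _ => ⟨0, sl_of_mem_Sc (hc g)⟩)
    rw [← cA]
    refine Nat.card_le_card_of_injective (fun x : A => ((x * g : G) : G ⧸ H)) fun x y e => ?_
    by_contra hc
    refine hg (k1 g _ (x⁻¹ * y).2 (fun e => hc (inv_mul_eq_one.1 (Subtype.ext e))) ?_)
    simpa [mul_assoc] using QuotientGroup.eq.1 e
  have i2 : a.Coprime H.index := Nat.coprime_of_dvd fun s hs h1 h2 => by
    have := Fact.mk hs
    obtain ⟨x, hx⟩ := exists_prime_orderOf_dvd_card' (G := A) s (cA ▸ h1)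
    have x1 : (x : G)⁻¹ ≠ 1 := fun e => hs.ne_one (by
      rw [← hx, orderOf_eq_one_iff]; exact Subtype.ext (inv_eq_one.1 e))
    have hP : IsPGroup s (Subgroup.zpowers (x : G)) :=
      .of_card (n := 1) (by rw [Nat.card_zpowers, Subgroup.orderOf_coe, hx, pow_one])
    obtain ⟨b, hb, ne⟩ := hP.exists_fixed_point_of_prime_dvd_card_of_fixed_point (G ⧸ H) h2
      (a := ((1 : G) : G ⧸ H)) fun y => QuotientGroup.eq.2 (by
        simpa using (Subgroup.zpowers_le.2 (Sc_mono (dvd_mul_right a t) x.2)) y.2)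
    obtain ⟨g, rfl⟩ := QuotientGroup.mk_surjective b
    have := QuotientGroup.eq.1 (hb ⟨x, Subgroup.mem_zpowers _⟩)
    exact ne (QuotientGroup.eq.2 (by simpa using k1 g _ (A.inv_mem x.2) x1 (by simpa using this)))
  let _ : CommGroup A := { mul_comm := fun x y => Subtype.ext (Sc_comm x.2 y.2) }
  let ϕ : H →* A := MonoidHom.mk' (fun y => ⟨y ^ t, by
    obtain ⟨z, hz, x, hx, e⟩ := h.split y.2
    rw [← e, Commute.mul_pow (Sc_comm hz hx), pow_of_mem_Sc hz, one_mul]
    exact A.pow_mem hx _⟩) fun x y => Subtype.ext (Commute.mul_pow (Sc_comm x.2 y.2) t)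
  have v1 : ∀ g ∈ H, (ϕ.transfer g : G) = (g ^ H.index) ^ t := fun g hg => by
    rw [MonoidHom.transfer_eq_pow ϕ g fun k g₀ e => ?_]
    · rfl
    by_cases hz : g ^ k ∈ Sc K G t
    · rw [mul_assoc, ← Subgroup.mem_center_iff.1 (h.cen hz), inv_mul_cancel_left]
    · rw [Sc_comm (hle (h.ti (H.pow_mem hg k) hz (by rwa [inv_inv]))) (H.pow_mem hg k),
        inv_mul_cancel_right]
  have v2 : ϕ.transfer.ker.index = a := by
    rw [Subgroup.index_ker, MonoidHom.range_eq_top.2, Subgroup.card_top, cA]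
    refine Function.Surjective.of_comp (g := A.subtype) (Finite.surjective_of_injective
      (f := ϕ.transfer.comp A.subtype) ((injective_iff_map_eq_one _).2 fun x hx => ?_))
    have := v1 x (Sc_mono (dvd_mul_right a t) x.2)
    rw [show ϕ.transfer x = 1 from hx, ← pow_mul] at this
    exact Subtype.ext ((pow_eq_one_iff_of_coprime (i2.mul_right h.ct)).1
      ⟨pow_of_mem_Sc x.2, this.symm⟩)
  have pa : 0 < a * t := Nat.mul_pos h.one_lt.pos h.pos
  have v3 : ∀ (g : G) (v : Nz K) (c : F), g • v.1 = c • v.1 → g ∈ ϕ.transfer.ker := by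
    intro g v c e
    obtain ⟨z, hz, z1⟩ := h.exists_Z (c := c) fun e' => (g • v).2 (e.trans (by simp [e']))
    have b1 : z ∈ ϕ.transfer.ker := Subtype.ext (by
      rw [v1 z (Sc_mono (dvd_mul_left t a) hz), ← pow_mul, pow_mul', pow_of_mem_Sc hz, one_pow]
      rfl)
    refine (Subgroup.mul_mem_cancel_left _ (Subgroup.inv_mem _ b1)).1 ?_
    have b2 : z⁻¹ * g ∈ stabilizer G v := Nz.smul_eq.2 (by rw [mul_smul, e, ← z1, inv_smul_smul])
    have b3 : Nat.card (stabilizer G v) * d = H.index := by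
      have := (stabilizer G v).card_mul_index
      rw [index_stabilizer_of_transitive, h.cardNz, ← cG] at this
      exact Nat.eq_of_mul_eq_mul_right pa (by rw [← this]; ring)
    have b4 : (z⁻¹ * g) ^ H.index = 1 := by
      rw [← b3, pow_mul, show (z⁻¹ * g) ^ Nat.card (stabilizer G v) = 1 from
        congrArg Subtype.val (pow_card_eq_one' (x := (⟨_, b2⟩ : stabilizer G v))), one_pow]
    exact (pow_eq_one_iff_of_coprime i2).1 ⟨cA ▸ pow_card_eq_one', by rw [← map_pow, b4, map_one]⟩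
  let B : Nz K → Nz K → Prop := fun v w => ∃ c : F, w.1 = c • v.1
  have : Nonempty (Nz K) := ⟨⟨1, one_ne_zero⟩⟩
  have c1 := cnt_inner (G := G) B (n := t) fun v => by
    rw [← Nat.add_sub_cancel (n := t) (m := 1), ← h.card, ← card_univ,
      ← card_erase_of_mem (mem_univ (0 : F)), eq_comm]
    refine card_bij (fun c hc => ⟨c • v.1, smul_ne_zero (mem_erase.1 hc).1 v.2⟩)
      (fun c _ => mem_filter.2 ⟨mem_univ _, c, rfl⟩)
      (fun c _ c' _ e => smul_left_injective F v.2 (congrArg Subtype.val e)) fun w hw => ?_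
    obtain ⟨c, hc⟩ := (mem_filter.1 hw).2
    exact ⟨c, by simpa using fun e => w.2 (by simpa [e] using hc), Subtype.ext hc.symm⟩
  have c2 : ∑ g : G, cnt B g = Nat.card G * t := by
    have := card_mul_classInner (fun g : G => (cnt B g : ℂ)) (irrOne G).1
    simp only [c1, irrOne_apply, map_one, mul_one] at this
    exact_mod_cast this.symm
  have c3 : ∀ g : G, cnt B g ≤ (if g ∈ Sc K G t then a * d * t else 0) +
      if g ∈ ϕ.transfer.ker then (t + 1) ^ (r - 1) + (t + 1) ^ (r - 2) else 0 := fun g => by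
    by_cases hz : g ∈ Sc K G t
    · rw [if_pos hz, ← h.cardNz, Nat.card_eq_fintype_card]
      exact (card_le_univ _).trans (Nat.le_add_right _ _)
    rw [if_neg hz, zero_add]
    split_ifs with hk
    · have := Fintype.ofFinite K
      have := card_eigen (h.rank ▸ h.five) (DistribSMul.toLinearMap F K g) fun c => by
        simpa [h.mem_Z] using fun e => hz (h.mem_Z.2 ⟨c, e⟩)
      rw [h.card, h.rank] at this
      exact le_trans (card_le_card_of_injOn Subtype.val (fun v hv => mem_coe.2 (mem_filter.2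
        ⟨mem_univ _, (mem_filter.1 (mem_coe.1 hv)).2⟩))
        Subtype.val_injective.injOn) this
    · exact (card_eq_zero.2 (filter_eq_empty_iff.2 fun v _ ⟨c, hc⟩ => hk (v3 g v c hc))).le
  have c4 := sum_le_sum fun g (_ : g ∈ univ) => c3 g
  have c5 : ∀ (Y : Subgroup G) [DecidablePred (· ∈ Y)], #{g | g ∈ Y} = Nat.card Y := fun Y _ => by
    rw [Nat.card_eq_fintype_card, Fintype.card_subtype]
  have c6 : Nat.card ϕ.transfer.ker = H.index * t := by
    have := ϕ.transfer.ker.card_mul_index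
    rw [v2, ← cG] at this
    exact Nat.eq_of_mul_eq_mul_right h.one_lt.pos (by rw [this]; ring)
  have e1 := h.e1
  generalize (t + 1) ^ (r - 1) + (t + 1) ^ (r - 2) = β at *
  rw [c2, sum_add_distrib, ← sum_filter, ← sum_filter, sum_const, sum_const, c5, c5, c6,
    h.card_Sc (dvd_mul_left t a), ← cG, smul_eq_mul, smul_eq_mul] at c4
  have t0 := h.pos
  have I0 : 0 < H.index := lt_of_lt_of_le h.one_lt.pos i1
  generalize H.index = I at *
  have := Nat.mul_lt_mul_of_pos_left e1 (Nat.mul_pos I0 t0)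
  nlinarith [Nat.mul_le_mul_right (d * t * t) i1]

end Md

end Cfsg.Lib.CKS
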