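import Cfsg.Agent.Lib.Perm.Module

/-! A linear group transitive on nonzero vectors all of whose suborbits on independent vectors have
length at least `q ^ (n - 1)` is 2-transitive on points. -/

set_option autoImplicit false

namespace Cfsg.Lib.CKS

open Module MulAction Finset

variable {F V G : Type*} [Field F] [Fintype F] [AddCommGroup V] [Module F V] [Fintype V]
  [Group G] [Fintype G] [DistribMulAction G V] [SMulCommClass G F V]

omit [Fintype F] [Fintype V] [Fintype G] in
theorem smul_lin (g : G) (c b : F) (x y : V) : g • (c • x + b • y) = c • g • x + b • g • y := by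
  rw [smul_add, smul_comm g c, smul_comm g b]

open Classical in
theorem unip {v w : V} (v0 : v ≠ 0) (hw : ∀ c : F, w ≠ c • v)
    (hn : Fintype.card V ≤ Fintype.card F * #{y | ∃ g : G, g • v = v ∧ g • w = y}) (x : F) :
    ∃ g : G, g • v = v ∧ g • w = w + x • v := by
  let T : F → F → Prop := fun c b => ∃ g : G, g • v = v ∧ g • w = c • w + b • v
  have ind : ∀ g : G, g • v = v → ∀ c b : F, c • g • w + b • v = 0 → c = 0 := fun g hg c b e => by
    by_contra c0
    rw [← hg, ← smul_lin, smul_eq_zero_iff_eq, add_eq_zero_iff_eq_neg, ← neg_smul,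
      ← eq_inv_smul_iff₀ c0, smul_smul] at e
    exact hw _ e
  have c1 : Fintype.card F ≤ #{p : F × F | T p.1 p.2} := by
    have := card_le_mul_card_image_of_maps_to (f := fun p : V × F × F => p.2.1 • p.1 + p.2.2 • v)
      (s := ({y | ∃ g : G, g • v = v ∧ g • w = y} : Finset V) ×ˢ (univ.erase 0) ×ˢ univ)
      (t := univ.erase 0) ?_ #{p : F × F | T p.1 p.2} fun y _ => ?_
    · simp only [card_product, card_erase_of_mem (mem_univ _), card_univ] at this
      have q1 : 1 < Fintype.card F := Fintype.one_lt_card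
      have q2 : 0 < Fintype.card V := Fintype.card_pos
      by_contra hc
      have a1 := Nat.mul_le_mul_right (Fintype.card V - 1)
        (show #{p : F × F | T p.1 p.2} ≤ Fintype.card F - 1 by omega)
      have a2 := Nat.mul_le_mul_right (Fintype.card F - 1) hn
      have a3 := Nat.mul_lt_mul_of_pos_left (show Fintype.card V - 1 < Fintype.card V by omega)
        (show 0 < Fintype.card F - 1 by omega)
      nlinarith
    · simp only [mem_product, mem_filter, mem_univ, true_and, mem_erase, and_true]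
      rintro ⟨_, c, b⟩ ⟨⟨g, hg, rfl⟩, c0⟩ e
      exact c0 (ind g hg c b e)
    · rcases eq_empty_or_nonempty {p ∈ ({y | ∃ g : G, g • v = v ∧ g • w = y} : Finset V) ×ˢ
        (univ.erase (0 : F)) ×ˢ (univ : Finset F) | p.2.1 • p.1 + p.2.2 • v = y} with e | ⟨p₀, h₀⟩
      · rw [e]; simp
      obtain ⟨y₀, c₀, b₀⟩ := p₀
      simp only [mem_product, mem_filter, mem_univ, true_and, mem_erase, and_true] at h₀
      obtain ⟨⟨⟨g₀, hg₀, rfl⟩, c0⟩, rfl⟩ := h₀
      refine card_le_card_of_injOn (fun p => (p.2.1⁻¹ * c₀, p.2.1⁻¹ * (b₀ - p.2.2))) ?_ ?_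
      · simp only [Set.MapsTo, coe_filter, mem_product, mem_filter, mem_univ, true_and, mem_erase,
          and_true, Set.mem_ofPred_eq]
        rintro ⟨_, c, b⟩ ⟨⟨⟨g, hg, rfl⟩, c1⟩, e⟩
        refine ⟨g₀⁻¹ * g, by rw [mul_smul, hg, inv_smul_eq_iff, hg₀], ?_⟩
        rw [mul_smul, inv_smul_eq_iff, smul_lin, hg₀, mul_smul, mul_smul, ← smul_add,
          eq_inv_smul_iff₀ c1, sub_smul, ← add_sub_assoc, ← e, add_sub_cancel_right]
      · simp only [Set.InjOn, coe_filter, mem_product, mem_filter, mem_univ, true_and, mem_erase,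
          and_true, Set.mem_ofPred_eq, Prod.mk.injEq]
        rintro ⟨y, c, b⟩ ⟨⟨-, c1⟩, e⟩ ⟨y', c', b'⟩ ⟨-, e'⟩ ⟨e1, e2⟩
        obtain rfl : c = c' := inv_injective (mul_right_cancel₀ c0 e1)
        obtain rfl : b = b' := sub_right_injective (mul_left_cancel₀ (inv_ne_zero c1) e2)
        obtain rfl : y = y' := smul_right_injective V c1 (add_right_cancel (e.trans e'.symm))
        rfl
  have t1 : ∀ c b b', T c b → T c b' → T 1 (b - b') := by
    rintro c b b' ⟨g, g1, g2⟩ ⟨k, k1, k2⟩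
    refine ⟨k⁻¹ * g, by rw [mul_smul, g1, inv_smul_eq_iff, k1], ?_⟩
    rw [mul_smul, inv_smul_eq_iff, smul_lin, k1, k2, g2]
    module
  have t2 : ∀ c b u, T c b → T 1 u → T 1 (c * u) := by
    rintro c b u ⟨g, g1, g2⟩ ⟨k, k1, k2⟩
    have := t1 c (c * u + b) b ⟨k * g, by rw [mul_smul, g1, k1], by
      rw [mul_smul, g2, smul_lin, k1, k2]; module⟩ ⟨g, g1, g2⟩
    rwa [add_sub_cancel_right] at this
  have t3 : ∀ e : F, e ≠ 0 → (∀ u, T 1 u → T 1 (e * u)) → ¬ T 1 x → ¬ T 1 (e * x) :=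
    fun e e0 he hx h => by
      have : ∀ n : ℕ, T 1 (e ^ (n + 1) * x) := fun n => by
        induction n with
        | zero => simpa using h
        | succ n ih => rw [pow_succ', mul_assoc]; exact he _ ih
      have := this (Fintype.card F - 2)
      rw [show Fintype.card F - 2 + 1 = Fintype.card F - 1 by
        have := Fintype.one_lt_card (α := F); omega, FiniteField.pow_card_sub_one_eq_one e e0,
        one_mul] at this
      exact hx this
  by_contra hc
  have hx : ¬ T 1 x := fun ⟨g, g1, g2⟩ => hc ⟨g, g1, by rw [g2, one_smul]⟩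
  let β : F → F := fun c => if h : ∃ b, T c b then h.choose else 0
  have hβ : ∀ c b, T c b → T 1 (b - β c) := fun c b h => by
    simp only [β, dif_pos (⟨b, h⟩ : ∃ b, T c b)]
    exact t1 c _ _ h (Exists.choose_spec (⟨b, h⟩ : ∃ b, T c b))
  have := card_le_card_of_injOn (s := {p : F × F | T p.1 p.2}) (t := univ.erase 0)
    (fun p => p.1 * x - (p.2 - β p.1)) ?_ ?_
  · rw [card_erase_of_mem (mem_univ _), card_univ] at this
    have := Fintype.card_pos (α := F)
    omega
  · simp only [Set.MapsTo, coe_filter, mem_univ, true_and, Set.mem_ofPred_eq, coe_erase,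
      Set.mem_sdiff, Set.mem_singleton_iff, coe_univ, Set.mem_univ, sub_eq_zero]
    rintro ⟨c, b⟩ h e
    refine t3 c ?_ (fun u => t2 c b u h) hx (e ▸ hβ c b h)
    obtain ⟨g, g1, g2⟩ := h
    rintro rfl
    exact one_ne_zero (ind g g1 1 (-b) (by simp [g2]))
  · simp only [Set.InjOn, coe_filter, mem_univ, true_and, Set.mem_ofPred_eq]
    rintro ⟨c, b⟩ h ⟨c', b'⟩ h' e
    obtain rfl : c = c' := by
      by_contra hne
      refine t3 (c - c') (sub_ne_zero.2 hne) (fun u hu => ?_) hx ?_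
      · rw [sub_mul]; exact t1 1 _ _ (t2 c b u h hu) (t2 c' b' u h' hu)
      · have := t1 1 _ _ (hβ c b h) (hβ c' b' h')
        rwa [show b - β c - (b' - β c') = (c - c') * x by linear_combination -e] at this
    simpa using e

omit [Fintype G] [Group G] [DistribMulAction G V] [SMulCommClass G F V] in
open Classical in
theorem card_dual {f : Dual F V} (hf : f ≠ 0) (c : F) :
    Fintype.card F * #{x | f x = c} = Fintype.card V := by
  have a1 : ∀ c, #{x | f x = c} = #{x | f x = 0} := fun c => by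
    obtain ⟨y, rfl⟩ := LinearMap.surjective_iff_ne_zero.2 hf c
    exact card_equiv (Equiv.subRight y) fun x => by simp [sub_eq_zero]
  rw [a1, ← card_univ (α := V), card_eq_sum_card_fiberwise (s := univ) (f := f) (t := univ)
    fun _ _ => by simp]
  simp [a1]

open Classical in
theorem dual_trans {v : V} (hu : ∀ w, (∀ c : F, w ≠ c • v) → ∀ x : F,
    ∃ g : G, g • v = v ∧ g • w = w + x • v) {f₀ f₁ : Dual F V} (h₀ : f₀ v = 1) (h₁ : f₁ v = 1) :
    ∃ g : G, g • v = v ∧ ∀ w, f₁ (g • w) = f₀ w := by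
  by_contra hc
  push Not at hc
  set S : Finset G := {g | g • v = v} with hS
  have q1 : 1 < Fintype.card F := Fintype.one_lt_card
  have S0 : 0 < #S := card_pos.2 ⟨1, by simp [hS]⟩
  have a0 : ∀ c : F, ({g ∈ S | f₁ (g • c • v) = f₀ (c • v)} : Finset G) = S := fun c =>
    filter_true_of_mem fun g hg => by simp [smul_comm g c, (mem_filter.1 hg).2, h₀, h₁]
  have a1 : ∀ w, #S ≤ Fintype.card F * #{g ∈ S | f₁ (g • w) = f₀ w} := fun w => by
    by_cases hw : ∀ c : F, w ≠ c • v
    · rw [card_eq_sum_card_fiberwise (f := fun g => f₁ (g • w)) (t := univ) fun _ _ => by simp]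
      refine sum_le_card_nsmul _ _ _ fun t _ => ?_
      obtain ⟨k, k1, k2⟩ := hu w hw (f₀ w - t)
      refine card_le_card_of_injOn (· * k) (fun g hg => ?_) (mul_left_injective k).injOn
      simp only [hS, coe_filter, mem_filter, mem_univ, true_and, Set.mem_ofPred_eq] at hg ⊢
      simp [mul_smul, k1, k2, hg.1, hg.2, smul_comm g, h₁]
    · push Not at hw
      obtain ⟨c, rfl⟩ := hw
      rw [a0]
      exact Nat.le_mul_of_pos_left _ q1.pos
  have a2 : ∑ _w : V, #S < ∑ w, Fintype.card F * #{g ∈ S | f₁ (g • w) = f₀ w} :=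
    sum_lt_sum (fun w _ => a1 w) ⟨(0 : F) • v, mem_univ _, by rw [a0]; nlinarith⟩
  have a3 : ∑ w, #{g ∈ S | f₁ (g • w) = f₀ w} = ∑ g ∈ S, #{w | f₁ (g • w) = f₀ w} := by
    simp only [card_filter]; exact sum_comm
  rw [← mul_sum, a3, mul_sum, sum_congr (s₁ := S) rfl (g := fun _ => Fintype.card V)
    fun g hg => ?_] at a2
  · simp [mul_comm] at a2
  · obtain ⟨w, hw⟩ := hc g (mem_filter.1 hg).2
    rw [← card_dual (f := f₁ ∘ₗ DistribSMul.toLinearMap F V g - f₀)
      (fun e => hw (by simpa [sub_eq_zero] using LinearMap.congr_fun e w)) 0]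
    simp [sub_eq_zero]

open Classical in
/-- 2-transitivity on points -/
theorem two_trans (h2 : 2 ≤ finrank F V) (tr : ∀ v w : V, v ≠ 0 → w ≠ 0 → ∃ g : G, g • v = w)
    (val : ∀ v w : V, v ≠ 0 → (∀ c : F, w ≠ c • v) →
      Fintype.card V ≤ Fintype.card F * #{y | ∃ g : G, g • v = v ∧ g • w = y})
    {v w v' w' : V} (v0 : v ≠ 0) (hw : ∀ c : F, w ≠ c • v) (v0' : v' ≠ 0)
    (hw' : ∀ c : F, w' ≠ c • v') : ∃ g : G, ∃ b : F, g • v = v' ∧ g • w = b • w' := by
  obtain ⟨f, hf⟩ := Module.Projective.exists_dual_eq_one F v0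
  have f0 : f ≠ 0 := fun e => by simp [e] at hf
  let H : Subgroup G :=
    { carrier := {g | ∀ x, f (g • x) = f x}
      mul_mem' := fun ha hb x => by rw [mul_smul, ha, hb]
      one_mem' := fun x => by rw [one_smul]
      inv_mem' := fun {g} hg x => by rw [← hg, smul_inv_smul] }
  let X : F → SubMulAction H V := fun c =>
    { carrier := {x | f x = c}
      smul_mem' := fun g x hx => (g.2 x).trans hx }
  have : IsPretransitive H (X 1) := ⟨fun x y => by
    have n0 : ∀ x : X 1, (x : V) ≠ 0 := fun x e => by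
      have : f x = 1 := x.2
      simp [e] at this
    obtain ⟨k, hk⟩ := tr _ _ (n0 x) (n0 y)
    obtain ⟨g, g1, g2⟩ := dual_trans (G := G) (fun w hw => unip (n0 x) hw (val _ w (n0 x) hw))
      (f₀ := f) (f₁ := f ∘ₗ DistribSMul.toLinearMap F V k) x.2 ((congrArg f hk).trans y.2)
    exact ⟨⟨k * g, fun w => by simpa [mul_smul] using g2 w⟩, Subtype.ext (by
      show (k * g) • (x : V) = y
      rw [mul_smul, g1, hk])⟩⟩
  obtain ⟨p, _, m, hp, hm⟩ := FiniteField.card' F
  have := Fact.mk hp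
  have cX : ∀ c, Nat.card (X c) = p ^ (m * (finrank F V - 1)) := fun c => by
    have := card_dual f0 c
    rw [card_eq_pow_finrank (K := F) (V := V), ← Nat.sub_add_cancel (le_of_lt h2), pow_succ',
      Nat.mul_right_inj Fintype.card_ne_zero, hm, ← pow_mul] at this
    rw [← this, Nat.card_eq_fintype_card, Fintype.card_subtype]
    rfl
  obtain ⟨P⟩ : Nonempty (Sylow p H) := inferInstance
  have := Perm.sylow_isPretransitive (cX 1) P
  obtain ⟨y, hy, y0⟩ := P.isPGroup'.exists_fixed_point_of_prime_dvd_card_of_fixed_point (X 0)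
    (cX 0 ▸ dvd_pow_self p (Nat.mul_pos m.2 (by omega)).ne') (a := ⟨0, map_zero f⟩)
    fun g => Subtype.ext (smul_zero _)
  have y0 : (y : V) ≠ 0 := fun e => y0 (Subtype.ext e.symm)
  have key : ∀ v₁ w₁ : V, v₁ ≠ 0 → (∀ c : F, w₁ ≠ c • v₁) →
      ∃ g : G, ∃ c : F, c ≠ 0 ∧ g • v₁ = y ∧ g • w₁ = c • v := fun v₁ w₁ n1 n2 => by
    obtain ⟨k, hk⟩ := tr _ _ n1 y0
    have n3 : ∀ c : F, k • w₁ ≠ c • y := fun c e => n2 c (by
      rwa [← hk, ← smul_comm, smul_left_cancel_iff] at e)
    have : ∃ g : G, g • (y : V) = y ∧ f (g • k • w₁) ≠ 0 := by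
      by_contra hc
      push Not at hc
      have a1 := (val _ _ y0 n3).trans (Nat.mul_le_mul_left _ (card_le_card
        (t := ({x | f x = 0} : Finset V).erase 0) fun x hx => by
          obtain ⟨g, g1, rfl⟩ := (mem_filter.1 hx).2
          exact mem_erase.2 ⟨fun e => n3 0 (by simpa [smul_eq_zero_iff_eq] using e),
            by simpa using hc g g1⟩))
      rw [← card_dual f0 0, Nat.mul_le_mul_left_iff Fintype.card_pos] at a1
      exact a1.not_gt (card_erase_lt_of_mem (by simp))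
    obtain ⟨g, g1, g2⟩ := this
    obtain ⟨s, hs⟩ := exists_smul_eq P (⟨(f (g • k • w₁))⁻¹ • g • k • w₁, by
      show f _ = 1
      rw [map_smul, smul_eq_mul, inv_mul_cancel₀ g2]⟩ : X 1) ⟨v, hf⟩
    have hs : (s.1.1 : G) • (f (g • k • w₁))⁻¹ • g • k • w₁ = v := congrArg Subtype.val hs
    refine ⟨s.1.1 * g * k, _, g2, ?_, ?_⟩
    · rw [mul_smul, mul_smul, hk, g1]; exact congrArg Subtype.val (hy s)
    · rw [smul_comm, inv_smul_eq_iff₀ g2] at hs
      rw [mul_smul, mul_smul, hs]
  obtain ⟨g, c, -, g1, g2⟩ := key v w v0 hw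
  obtain ⟨k, e, e0, k1, k2⟩ := key v' w' v0' hw'
  refine ⟨k⁻¹ * g, c * e⁻¹, by rw [mul_smul, g1, inv_smul_eq_iff, k1], ?_⟩
  rw [mul_smul, g2, inv_smul_eq_iff, smul_comm k, k2, smul_smul, inv_mul_cancel_right₀ e0]

end Cfsg.Lib.CKS
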