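import Cfsg.Agent.Lib.CK.SI
import Cfsg.Agent.Lib.CK.SJ
import Cfsg.Agent.Lib.CK2.F

/-! Overgroups of a Singer cycle of prime degree `r ≥ 5` are 2-transitive on points. -/

set_option autoImplicit false

namespace Cfsg.Lib.CKS

open Cfsg Cfsg.Lib.Char Module MulAction Finset

open Classical in
theorem card_pair {G Ω : Type*} [Group G] [Fintype G] [MulAction G Ω] [Fintype Ω] (v w x : Ω)
    (k : G) (hk : k • v = x) :
    #{y | ∃ g : G, g • v = x ∧ g • w = y} * #{g : G | g • v = v ∧ g • w = w} =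
      #{g : G | g • x = x} := by
  have a1 : #{g : G | g • x = x} = #{g : G | g • v = x} :=
    card_equiv (Equiv.mulRight k) fun g => by simp [mul_smul, hk]
  rw [a1, card_eq_sum_card_fiberwise (s := {g : G | g • v = x}) (f := fun g : G => g • w)
    (t := {y | ∃ g : G, g • v = x ∧ g • w = y}) fun g hg => by simpa using ⟨g, by simpa using hg, rfl⟩,
    eq_comm]
  refine sum_const_nat fun y hy => ?_
  obtain ⟨g, rfl, rfl⟩ := (mem_filter.1 hy).2
  exact card_equiv (Equiv.mulLeft g⁻¹) fun u => by simp [mul_smul, inv_smul_eq_iff]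

variable {K : Type*} [Field K] {G : Type*} [Group G] [DistribMulAction G K] [FaithfulSMul G K]
  {F : Type*} [Field F] [Fintype F] [Fintype K] [Algebra F K] [SMulCommClass G F K] [Fintype G]

namespace Md

variable {t r d a : ℕ} (h : Md K G F t r d a)
include h

omit [FaithfulSMul G K] [SMulCommClass G F K] [Fintype G] in
theorem ne_six : ¬ (r = 5 ∧ t = 5) := fun e => by
  have := FiniteField.isPrimePow_card F
  rw [h.card, e.2] at this
  revert this
  decide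

open Classical in
theorem val {φ : G} (hφ : ∀ v : K, φ • v = v ^ (t + 1))
    (hmin : ∀ Y : Subgroup G, Sc K G (a * t) ≤ Y → Y ≤ h.Nn ∨ Y = ⊤) (hN : h.Nn ≠ ⊤)
    (h2 : ¬ (r = 5 ∧ t = 1)) (v w : K) (v0 : v ≠ 0) (hw : ∀ c : F, w ≠ c • v) :
    Fintype.card K ≤ Fintype.card F * #{y | ∃ g : G, g • v = v ∧ g • w = y} := by
  have := h.trans hN
  obtain ⟨τ, ts⟩ := h.ts hφ hmin hN h2 h.ne_six
  have n0 : ∀ c : F, w + c • v ≠ 0 := fun c e => hw (-c) (by rw [neg_smul, eq_neg_iff_add_eq_zero, e])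
  obtain ⟨c, c', ne, e⟩ := Fintype.exists_ne_map_eq_of_card_lt
    (fun c : F => (⟨Units.mk0 _ (n0 c) ^ (a * t), by
      rw [MonoidHom.mem_ker, powMonoidHom_apply, ← pow_mul, mul_right_comm, ← h.cardU,
        pow_card_eq_one']⟩ : (powMonoidHom d : Kˣ →* Kˣ).ker)) (by
    rw [← Nat.card_eq_fintype_card, IsCyclic.card_powMonoidHom_ker, h.card]
    exact Nat.lt_succ_of_le ((Nat.gcd_le_right _ h.dpos).trans h.dle))
  obtain ⟨s, hs⟩ := h.sc (Units.mk0 _ (n0 c') / Units.mk0 _ (n0 c)) (by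
    rw [div_pow, div_eq_one]; exact (congrArg Subtype.val e).symm)
  obtain ⟨z₀, hz₀, x, hx, rfl⟩ := h.split (mem_Sc.2 ⟨_, by
    rw [div_pow, div_eq_one]; exact (congrArg Subtype.val e).symm, hs⟩)
  let v₀ : Nz K := ⟨_, n0 c⟩
  let w₀ : Nz K := ⟨_, n0 c'⟩
  have s0 : (z₀ * x) • v₀ = w₀ := Nz.smul_eq.2 (by simp [hs, v₀, w₀, n0 c])
  have x1 : x ≠ 1 := by
    rintro rfl
    obtain ⟨b, hb⟩ := h.mem_Z.1 hz₀
    have a1 : w + c' • v = b • (w + c • v) := by
      rw [← hb, ← mul_one z₀]; exact (Nz.smul_eq.1 s0).symm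
    rcases eq_or_ne b 1 with rfl | b1
    · exact ne (smul_left_injective F v0 (by simpa using a1.symm))
    · refine hw ((1 - b)⁻¹ * (b * c - c')) ?_
      rw [mul_smul, eq_inv_smul_iff₀ (sub_ne_zero.2 b1.symm)]
      linear_combination (norm := module) a1
  let B : Nz K → Nz K → Prop := fun p q => ∃ g : G, g • v₀ = p ∧ g • w₀ = q
  have hB : ∀ (g : G) p q, B (g • p) (g • q) ↔ B p q := fun g p q =>
    ⟨fun ⟨k, k1, k2⟩ => ⟨g⁻¹ * k, by simp [mul_smul, k1], by simp [mul_smul, k2]⟩,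
      fun ⟨k, k1, k2⟩ => ⟨g * k, by simp [mul_smul, k1], by simp [mul_smul, k2]⟩⟩
  set n := #{y | ∃ g : G, g • v = v ∧ g • w = y} with hn
  have hv : ∀ p, #{q | B p q} = n := fun p => by
    obtain ⟨k, hk⟩ := exists_smul_eq G v₀ p
    obtain ⟨l, hl⟩ := exists_smul_eq G p ⟨v, v0⟩
    have a1 := card_pair v₀ w₀ p k hk
    have a2 := card_pair v w v (1 : G) (one_smul _ _)
    have a3 : #{g : G | g • p = p} = #{g : G | g • v = v} :=
      card_equiv (MulAut.conj l).toEquiv fun g => by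
        have : v = l • p.1 := (Nz.smul_eq.1 hl).symm
        simp [mul_smul, this, Nz.smul_eq]
    have a4 : #{g : G | g • v₀ = v₀ ∧ g • w₀ = w₀} = #{g : G | g • v = v ∧ g • w = w} := by
      refine congrArg _ (filter_congr fun g _ => ?_)
      rw [Nz.smul_eq, Nz.smul_eq]
      simp only [v₀, w₀, smul_add, smul_comm g]
      refine ⟨fun ⟨b1, b2⟩ => ?_, fun ⟨b1, b2⟩ => by simp [b1, b2]⟩
      have : g • v = v := smul_right_injective K (sub_ne_zero.2 ne) (by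
        simp only [sub_smul]; linear_combination (exp := 1) b1 - b2)
      exact ⟨this, by simpa [this] using b1⟩
    rw [a3, a4, ← a2] at a1
    exact Nat.eq_of_mul_eq_mul_right (card_pos.2 ⟨1, by simp⟩) a1
  have m := TS.main B hB hv ts (h.ta hφ hN h.ne_six) hx x1
  rw [h.card_Sc (dvd_mul_right _ _), h.card_Sc (dvd_mul_left _ _)] at m
  have c0 : ∀ z : Sc K G t, cnt B (z * x : G) ≠ 0 → a * t ≤ cnt B (z * x : G) := fun z hz => by
    obtain ⟨p, hp⟩ := card_ne_zero.1 hz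
    rw [← h.card_Sc dvd_rfl, Nat.card_eq_fintype_card, ← card_univ]
    refine card_le_card_of_injOn (fun s => s.1 • p) (fun s _ => ?_) fun s _ s' _ e => ?_
    · refine mem_coe.2 (mem_filter.2 ⟨mem_univ _, ?_⟩)
      rw [← mul_smul, ← Sc_comm s.2 (mul_mem hx z.2), mul_smul, hB]
      exact (mem_filter.1 hp).2
    · refine Subtype.ext (eq_of_inv_mul_eq_one (eq_one_of_mem_Sc (s⁻¹ * s').2 p.2 ?_))
      rw [mul_smul, inv_smul_eq_iff]
      exact (Nz.smul_eq.1 e).symm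
  have c1 : ∀ {m : ℕ}, n ≤ a * t → a * t ≤ m → ((a : ℝ) * t - n) ^ 2 ≤ ((m : ℝ) - n) ^ 2 :=
    fun h1 h2 => pow_le_pow_left₀ (sub_nonneg.2 (by exact_mod_cast h1))
      (sub_le_sub_right (by exact_mod_cast h2) _) 2
  have := h.bound h.ne_six m (fun h1 => (c1 h1 (c0 ⟨z₀, hz₀⟩ (card_ne_zero.2
      ⟨v₀, mem_filter.2 ⟨mem_univ _, 1, one_smul _ _, by rw [one_smul, s0]⟩⟩))).trans
      (single_le_sum (f := fun z : Sc K G t => ((cnt B (z * x : G) : ℝ) - n) ^ 2)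
        (fun _ _ => sq_nonneg _) (mem_univ _))) fun h1 h2 => by
    have := card_nsmul_le_sum univ (fun z : Sc K G t => ((cnt B (z * x : G) : ℝ) - n) ^ 2)
      (((a : ℝ) * t - n) ^ 2) fun z _ => by
        rcases eq_or_ne (cnt B (z * x : G)) 0 with e | e
        · have h1 : (n : ℝ) ≤ a * t := by exact_mod_cast h1
          have h2 : (a : ℝ) * t ≤ 2 * n := by exact_mod_cast h2
          simp only [e, Nat.cast_zero]
          nlinarith
        · exact c1 h1 (c0 z e)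
    rwa [card_univ, ← Nat.card_eq_fintype_card, h.card_Sc (dvd_mul_left _ _), nsmul_eq_mul] at this
  rw [← Nat.card_eq_fintype_card, h.cardK, h.card, ← Nat.sub_add_cancel h.prime.pos, pow_succ']
  exact Nat.mul_le_mul_left _ this

theorem two_small (hN : h.Nn ≠ ⊤) (h5 : r = 5) (h1 : t = 1) (v w v' w' : Nz K) (n : v ≠ w)
    (n' : v' ≠ w') : ∃ g : G, g • v = v' ∧ g • w = w' := by
  have := h.trans hN
  subst h5 h1
  obtain rfl : d = 1 := Nat.dvd_one.1 h.dt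
  obtain rfl : a = 31 := by have := h.mul; omega
  have : FaithfulSMul G (Nz K) := ⟨fun {g k} e => eq_of_smul_eq_smul fun v : K => by
    rcases eq_or_ne v 0 with rfl | v0
    · simp
    · exact Nz.smul_eq.1 (e ⟨v, v0⟩)⟩
  have c : Nat.card (Nz K) = 31 := h.cardNz
  have p : Fact (Nat.Prime 31) := ⟨by norm_num⟩
  refine (CK2.prime_dich (G := G) (c ▸ p.out)).resolve_right ?_ v w v' w' n n'
  rintro ⟨M, hM, cM, tM⟩
  have cA := h.card_Sc (m := 31) dvd_rfl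
  have hP : IsPGroup 31 (M ⊔ Sc K G 31 : Subgroup G) :=
    IsPGroup.to_sup_of_normal_left (.of_card (n := 1) (cM.trans c)) (.of_card (n := 1) cA)
  have a1 : Sc K G 31 ≤ M := fun x hx => by
    obtain ⟨m, hm⟩ := exists_smul_eq M v (x • v)
    have b1 : (m⁻¹ * x : G) • v = v := by rw [mul_smul, ← hm]; exact inv_smul_smul _ _
    obtain ⟨u, hu, ne⟩ := (hP.to_le (Subgroup.zpowers_le.2 (Subgroup.mul_mem_sup (M.inv_mem m.2)
      hx))).exists_fixed_point_of_prime_dvd_card_of_fixed_point (Nz K) (c ▸ dvd_rfl) (a := v)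
      fun y => (Subgroup.zpowers_le (H := stabilizer G v)).2 b1 y.2
    rw [← eq_of_inv_mul_eq_one (CK2.two_fixed (c ▸ p.out) cM tM ne b1
      (hu ⟨_, Subgroup.mem_zpowers _⟩))]
    exact m.2
  rw [← Subgroup.eq_of_le_of_card_ge a1 (by rw [cA, cM, c])] at hM
  exact hN (h.top_of_normal hM le_rfl fun x hx => ⟨0, sl_of_mem_Sc hx⟩)

theorem two (hN : h.Nn ≠ ⊤) {v w v' w' : K} (v0 : v ≠ 0) (hw : ∀ c : F, w ≠ c • v) (v0' : v' ≠ 0)
    (hw' : ∀ c : F, w' ≠ c • v') : ∃ g : G, ∃ b : F, g • v = v' ∧ g • w = b • w' := by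
  classical
  by_cases h2 : r = 5 ∧ t = 1
  · obtain ⟨g, g1, g2⟩ := h.two_small hN h2.1 h2.2 ⟨v, v0⟩ ⟨w, by simpa using hw 0⟩ ⟨v', v0'⟩
      ⟨w', by simpa using hw' 0⟩ (fun e => hw 1 (by simpa using (congrArg Subtype.val e).symm))
      fun e => hw' 1 (by simpa using (congrArg Subtype.val e).symm)
    exact ⟨g, 1, Nz.smul_eq.1 g1, by simpa using Nz.smul_eq.1 g2⟩
  obtain ⟨Y, ⟨y1, y2⟩, hY⟩ := (wellFounded_lt (α := Subgroup G)).has_min
    {Y | Sc K G (a * t) ≤ Y ∧ ¬ Y ≤ h.Nn} ⟨⊤, le_top, fun e => hN (top_unique e)⟩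
  have k : Md K Y F t r d a := ⟨h.toNum, h.card, h.rank, fun u hu => by
    obtain ⟨g, hg⟩ := h.sc u hu
    exact ⟨⟨g, y1 (mem_Sc.2 ⟨u, hu, hg⟩)⟩, hg⟩, fun g => h.nrm g⟩
  have kN : k.Nn ≠ ⊤ := fun e => y2 fun y hy => (e ▸ Subgroup.mem_top _ : (⟨y, hy⟩ : Y) ∈ k.Nn)
  obtain ⟨φ, hφ⟩ := k.frob_or.resolve_right fun e => kN (k.top_of_le e)
  have := k.trans kN
  have hm : ∀ W : Subgroup Y, Sc K Y (a * t) ≤ W → W ≤ k.Nn ∨ W = ⊤ :=
    fun W hW => or_iff_not_imp_left.2 fun e => by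
      refine Subgroup.map_injective Y.subtype_injective ?_
      rw [← MonoidHom.range_eq_map, Subgroup.range_subtype]
      refine eq_of_le_of_not_lt (Subgroup.map_subtype_le W) (hY _ ⟨fun x hx => ?_, fun e' => ?_⟩)
      · exact ⟨⟨x, y1 hx⟩, hW (mem_Sc.2 (mem_Sc.1 hx)), rfl⟩
      · exact e fun x hx => e' ⟨x, hx, rfl⟩
  obtain ⟨g, hg⟩ := two_trans (G := Y) (h.rank ▸ h.prime.two_le) (fun v w v0 w0 => by
    obtain ⟨g, hg⟩ := exists_smul_eq (α := Nz K) Y ⟨v, v0⟩ ⟨w, w0⟩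
    exact ⟨g, Nz.smul_eq.1 hg⟩) (k.val hφ hm kN h2) v0 hw v0' hw'
  exact ⟨g, hg⟩

end Md

end Cfsg.Lib.CKS
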