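import Cfsg.Agent.Lib.CK.SK
import Cfsg.Agent.Lib.CK.Main
import Cfsg.Agent.Lib.Linear.MaxField2
import Cfsg.Agent.Lib.Asch.Factor

/-! The normaliser of a Singer cycle is maximal in `SL_r (q)` for primes `r ≥ 5`. -/

set_option autoImplicit false

namespace Cfsg.Lib.CKS

open Matrix Module Polynomial Cfsg.Geo Cfsg.Lib.Linear
open scoped MatrixGroups

variable {F K : Type*} [Field F] [Fintype F] [Field K] [Finite K] [Algebra F K]

theorem det_frob (ho : Odd (finrank F K)) :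
    LinearMap.det (FiniteField.frobeniusAlgHom F K).toLinearMap = 1 := by
  have h := LinearMap.minpoly_dvd_charpoly (FiniteField.frobeniusAlgHom F K).toLinearMap
  rw [FiniteField.minpoly_frobeniusAlgHom] at h
  rw [LinearMap.det_eq_sign_charpoly_coeff, eq_of_monic_of_dvd_of_natDegree_le
    (monic_X_pow_sub_C 1 finrank_pos.ne') (LinearMap.charpoly_monic _) h (by
      rw [LinearMap.charpoly_natDegree, natDegree_X_pow_sub_C])]
  simp [ho.neg_one_pow, coeff_X_pow, (finrank_pos (R := F) (M := K)).ne]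

theorem det_semi (ho : Odd (finrank F K)) (g : K →ₗ[F] K) (b : K) (j : ℕ)
    (h : ∀ v, g v = b * v ^ Fintype.card F ^ j) : LinearMap.det g = Algebra.norm F b := by
  have : g = Algebra.lmul F K b * (FiniteField.frobeniusAlgHom F K).toLinearMap ^ j := by
    ext v
    simp [h, Module.End.coe_pow, FiniteField.coe_frobeniusAlgHom, pow_iterate]
  rw [this, map_mul, map_pow, det_frob ho, one_pow, mul_one, Algebra.norm_apply]

theorem singer_lin (hr : (finrank F K).Prime) (h5 : 5 ≤ finrank F K) (M : Subgroup (K ≃ₗ[F] K))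
    (hM : ∀ g ∈ M, LinearMap.det (g : K →ₗ[F] K) = 1)
    (hH : ∀ (g : K ≃ₗ[F] K) (u : K), LinearMap.det (g : K →ₗ[F] K) = 1 → (∀ v, g v = u * v) → g ∈ M)
    {g₀ : K ≃ₗ[F] K} (h₀ : g₀ ∈ M) (h₁ : ∀ (b : K) j, ∃ v, g₀ v ≠ b * v ^ Fintype.card F ^ j)
    (g : K ≃ₗ[F] K) (hg : LinearMap.det (g : K →ₗ[F] K) = 1) : g ∈ M := by
  have := Fintype.ofFinite K
  obtain ⟨t, ht⟩ : ∃ t, Fintype.card F = t + 1 := ⟨_, (Nat.sub_add_cancel Fintype.card_pos).symm⟩
  obtain ⟨d, a, hn⟩ := exists_num (t := t) hr h5 (by have := Fintype.one_lt_card (α := F); omega)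
  have ho := hr.odd_of_ne_two (by omega)
  have nb : ∀ b : K, algebraMap F K (Algebra.norm F b) = b ^ (a * d) := fun b => by
    rw [FiniteField.algebraMap_norm_eq_pow, natCard_eq_pow_finrank (K := F),
      Nat.card_eq_fintype_card, ht, ← hn.mul, Nat.add_sub_cancel, Nat.add_sub_cancel,
      Nat.mul_div_cancel _ hn.pos]
  let G : Subgroup (K ≃ₗ[F] K) :=
    { carrier := {g | ∃ c : F, c ≠ 0 ∧ ∃ m ∈ M, ∀ v, g v = c • m v}
      mul_mem' := fun ⟨c, c0, m, hm, e⟩ ⟨c', c0', m', hm', e'⟩ =>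
        ⟨c * c', mul_ne_zero c0 c0', m * m', M.mul_mem hm hm', fun v => by simp [e, e', mul_smul]⟩
      one_mem' := ⟨1, one_ne_zero, 1, M.one_mem, fun v => by simp⟩
      inv_mem' := fun {g} ⟨c, c0, m, hm, e⟩ => ⟨c⁻¹, inv_ne_zero c0, m⁻¹, M.inv_mem hm, fun v =>
        g.injective (by rw [← LinearEquiv.mul_apply, mul_inv_cancel, e]; simp [c0])⟩ }
  have : Finite G := Finite.of_injective (fun g : G => (g.1 : K → K))
    fun _ _ e => Subtype.ext (DFunLike.coe_injective e)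
  have := Fintype.ofFinite G
  have h : Md K G F t (finrank F K) d a := ⟨hn, ht, rfl, fun u hu => ?_, ?_⟩
  · refine CK.ck1 h5 M (fun v w v' w' i i' => ?_) g hg
    rw [linearIndependent_fin2] at i i'
    have hN : h.Nn ≠ ⊤ := fun e => by
      obtain ⟨j, b, hb⟩ : (⟨g₀, 1, one_ne_zero, g₀, h₀, by simp⟩ : G) ∈ h.Nn :=
        e ▸ Subgroup.mem_top _
      obtain ⟨v, hv⟩ := h₁ b j
      exact hv (ht ▸ hb v)
    obtain ⟨⟨k, c, c0, m, hm, e⟩, b, k1, k2⟩ := h.two hN i.1 (fun c e => i.2 c e.symm)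
      i'.1 fun c e => i'.2 c e.symm
    refine ⟨m, hm, c⁻¹ * b, c⁻¹, ?_, ?_⟩
    · rw [mul_smul, eq_inv_smul_iff₀ c0, ← e]; exact k2
    · rw [eq_inv_smul_iff₀ c0, ← e]; exact k1
  · obtain ⟨i, j, e⟩ : ∃ i j : ℤ, a * i + t * j = 1 :=
      ⟨_, _, by rw [← Nat.gcd_eq_gcd_ab, hn.ct.gcd_eq_one, Nat.cast_one]⟩
    have key : ∀ (m n : ℕ) (i : ℤ), u ^ (m * n) = 1 → (u ^ (m * i)) ^ n = 1 := fun m n i e1 => by
      rw [← _root_.zpow_natCast, ← _root_.zpow_mul, mul_right_comm, _root_.zpow_mul, ← Nat.cast_mul,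
        _root_.zpow_natCast, e1, _root_.one_zpow]
    obtain ⟨c, hc⟩ := mem_of_pow (F := F) (u := ((u ^ (a * i) : Kˣ) : K)) (by
      rw [ht, pow_succ, ← Units.val_pow_eq_pow_val, key a t i hu]; simp)
    have c0 : c ≠ 0 := fun e => (u ^ (a * i)).ne_zero (by simp [← hc, e])
    let s : Kˣ → K ≃ₗ[F] K := fun u => DistribMulAction.toLinearEquiv F K u
    refine ⟨⟨s u, c, c0, s (u ^ (t * j)), hH _ (u ^ (t * j) : Kˣ) ?_ fun _ => rfl, fun v => ?_⟩,
      fun _ => rfl⟩
    · rw [det_semi ho _ (u ^ (t * j) : Kˣ) 0 fun v => by simp [s, Units.smul_def]]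
      refine (algebraMap F K).injective ?_
      rw [nb, pow_mul, ← Units.val_pow_eq_pow_val, key t a j (mul_comm a t ▸ hu)]
      simp
    · show (u : K) * v = c • ((u ^ (t * j) : Kˣ) * v)
      rw [Algebra.smul_def, hc, ← mul_assoc, ← Units.val_mul, ← _root_.zpow_add, e, _root_.zpow_one]
  · rintro ⟨k, c, c0, m, hm, e⟩ b j hb
    have a1 := det_semi ho (k : K →ₗ[F] K) b j (ht ▸ hb)
    rw [show (k : K →ₗ[F] K) = c • (m : K →ₗ[F] K) from LinearMap.ext e, LinearMap.det_smul,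
      hM m hm, mul_one] at a1
    obtain ⟨x, hx⟩ := hn.dt
    obtain ⟨y, hy⟩ := hn.dr
    have a2 := FiniteField.pow_card_sub_one_eq_one c c0
    rw [ht, Nat.add_sub_cancel] at a2
    conv_lhs => rw [hx, ← mul_assoc, pow_mul, ← nb, ← a1, ← map_pow, ← pow_mul, hy,
      mul_right_comm, ← hx, pow_mul, a2, one_pow, map_one]

variable {ι : Type} [Fintype ι] [DecidableEq ι] [Module K (ι → F)] [IsScalarTower F K (ι → F)]

theorem isMaximalIn_singer (hr : (finrank F K).Prime) (h5 : 5 ≤ finrank F K)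
    (hn : finrank F K = Fintype.card ι) :
    IsMaximalIn (specialLinear ι F) (semiGL K ⊓ specialLinear ι F) := by
  refine isMaximalIn_inf (not_specialLinear_le_semiGL hr.two_le (by omega))
    fun M hM hS g₀ h₀ h₁ g hg => ?_
  have : Nonempty ι := Fintype.card_pos_iff.1 (by omega)
  obtain ⟨o, o0⟩ := exists_ne (0 : ι → F)
  let e : K ≃ₗ[F] (ι → F) := LinearEquiv.ofBijective
    ((LinearMap.toSpanSingleton K _ o).restrictScalars F) (by
      have : Function.Injective ((LinearMap.toSpanSingleton K _ o).restrictScalars F) :=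
        smul_left_injective K o0
      exact ⟨this, (LinearMap.injective_iff_surjective_of_finrank_eq_finrank (by simp [hn])).1 this⟩)
  have e1 : ∀ k v : K, e (k * v) = k • e v := fun k v => mul_smul k v o
  let ρ : GL ι F ≃* (K ≃ₗ[F] K) := (GeneralLinearGroup.toLin.trans
    (LinearMap.GeneralLinearGroup.congrLinearEquiv e.symm)).trans
    (LinearMap.GeneralLinearGroup.generalLinearEquiv F K)
  have r1 : ∀ (g : GL ι F) v, e (ρ g v) = g.1 *ᵥ e v := fun g v => e.apply_symm_apply _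
  have r2 : ∀ g : GL ι F, LinearMap.det (ρ g : K →ₗ[F] K) = 1 ↔ g ∈ specialLinear ι F := fun g => by
    rw [show (ρ g : K →ₗ[F] K) = e.symm ∘ₗ toLin' g.1 ∘ₗ e.symm.symm from rfl, LinearMap.det_conj,
      LinearMap.det_toLin']
    exact ⟨fun h => Units.ext h, fun h => congrArg Units.val h⟩
  have r3 : ∀ (g : GL ι F) (b : K) j, (∀ v, ρ g v = b * v ^ Fintype.card F ^ j) → g ∈ semiGL K :=
    fun g b j h => mem_semiGL_of_forall fun k => ⟨k ^ Fintype.card F ^ j, fun x => by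
      obtain ⟨v, rfl⟩ := e.surjective x
      rw [← e1, ← r1, ← r1, ← e1, h, h, mul_pow, mul_left_comm]⟩
  obtain ⟨k, hk, e2⟩ := singer_lin hr h5 (M.map ρ.toMonoidHom)
    (by rintro _ ⟨k, hk, rfl⟩; exact (r2 k).2 (hS hk)) (fun k u k1 k2 => by
      obtain ⟨k, rfl⟩ := ρ.surjective k
      exact ⟨k, hM ⟨r3 k u 0 (by simpa using k2), (r2 k).1 k1⟩, rfl⟩) ⟨g₀, h₀, rfl⟩
    (fun b j => by
      by_contra hc
      push Not at hc
      exact h₁ (r3 g₀ b j hc)) (ρ g) ((r2 g).2 hg)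
  exact ρ.injective e2 ▸ hk

omit [Module K (ι → F)] in
/-- normalisers of subfields of prime degree -/
theorem maximal_field {r : ℕ} (hr : r.Prime) (h5 : 5 ≤ Fintype.card ι)
    {K : Subalgebra F (Matrix ι ι F)} (hK : IsFieldSubalgebra r K) :
    IsMaximalIn (specialLinear ι F) (subalgebraNormalizer K ⊓ specialLinear ι F) := by
  have : Nonempty ι := Fintype.card_pos_iff.1 (by omega)
  rcases (Nat.le_of_dvd (by omega) (Asch.FldData.dvd hK)).lt_or_eq with h | h
  · exact (maximal_subalgebraNormalizer hr h hK).2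
  let _ := (Asch.isField_of_isFieldSubalgebra hK).toField
  rw [subalgebraNormalizer_eq hK]
  rw [← hK.finrank_eq] at hr h
  exact isMaximalIn_singer hr (by omega) h

end Cfsg.Lib.CKS
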